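import Cfsg.Agent.ReeF4Mult.Lay

/-!
# The two coordinates of a block have commuting lifts

If the first coordinate of a block commutes with one root element `c` and the second coordinate is a
commutator `⁅c, d⁆`, their lifts commute; for the last block we reflect (owner: helper31).
-/

set_option autoImplicit false
set_option linter.unusedSectionVars false

namespace Cfsg.Agent.ReeF4Mult

open Cfsg.Lie Cfsg.Agent.ChevGrp Cfsg.Agent.ChevTw Cfsg.Agent.TwInvolF4
open scoped commutatorElement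

/-- The symbols of commutation. -/
def swapOK (p q : ℕ) : Bool :=
  collect (lsym p (pvar 0) (pvar 1) ++ lsym q (pvar 2) (pvar 3)) ==
    collect (lsym q (pvar 2) (pvar 3) ++ lsym p (pvar 0) (pvar 1))

/-- Whether a parameter is exactly additive. -/
def exactOK (p : ℕ) : Bool :=
  collect (lsym p (padd (pvar 0) (pvar 2)) (padd (pvar 1) (pvar 3))) ==
    collect (lsym p (pvar 0) (pvar 1) ++ lsym p (pvar 2) (pvar 3))

/-- Whether a word only has the parameter `r`. -/
def onlyOK (r : ℕ) (w : SWord) : Bool :=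
  match pick coordPos w with
  | none => false
  | some ps => (List.range 12).all fun p => (ps.getD p [] == []) || p == r

theorem swap_table : ∀ pq ∈ [(0, 1), (0, 3), (2, 3), (2, 8), (2, 5), (4, 8), (7, 9), (6, 9), (6, 8), (2, 0),
    (5, 8), (8, 9), (1, 0), (2, 1), (2, 2)], swapOK pq.1 pq.2 = true := by decide +kernel

theorem exact_table : ∀ p ∈ [0, 2, 3, 5, 6, 8, 9], exactOK p = true := by decide +kernel

theorem only_table : ∀ x ∈ [(1, 2), (4, 5), (7, 8)],
    onlyOK x.2 (addSym (ord.idxOf x.1)) = true := by decide +kernel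

theorem comm_only_table : ∀ x ∈ [(1, 4, 3), (4, 0, 2), (7, 4, 6)],
    onlyOK x.2.2 (lsym x.1 (pvar 0) (pvar 1) ++ lsym x.2.1 (pvar 2) (pvar 3) ++
      (lsym x.1 (pvar 0) (pvar 1)).reverse ++ (lsym x.2.1 (pvar 2) (pvar 3)).reverse) = true := by decide +kernel

/-- The symbols of the presentation of second coordinates as commutators. -/
def presSym (c : ℕ) (C C' : Pol) (d : ℕ) (D D' : Pol) : SWord :=
  lsym c C C' ++ lsym d D D' ++ (lsym c C C').reverse ++ (lsym d D D').reverse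

theorem pres_table : collect (presSym 0 [[]] [[]] 4 (pmul (pvar 1) (pvar 1)) (pvar 0)) = collect (lsym 2 (pvar 0) (pvar 1)) ∧
    collect (presSym 8 (pvar 0) (pvar 1) 0 [[]] [[]]) = collect (lsym 5 (pvar 0) (pvar 1)) ∧
    collect (presSym 9 [[]] [[]] 4 (pmul (pvar 1) (pvar 1)) (pvar 0)) = collect (lsym 8 (pvar 0) (pvar 1)) := by
  decide +kernel

theorem ex_table : ∀ pq ∈ [(0, 3), (2, 3), (2, 8), (2, 5), (6, 9), (6, 8), (2, 0), (5, 8), (8, 9)],
    swapOK pq.1 pq.2 = true ∧ indep (wtOf pq.1) (wtOf pq.2) = true := by decide +kernel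

theorem gd_table : ∀ pq ∈ [(1, 0), (4, 8), (7, 9)],
    swapOK pq.1 pq.2 = true ∧ indep (wtOf pq.1) (wtOf pq.2) = true := by decide +kernel

variable {K : Type*} [Field K] [CharP K 2] [Fintype K] {m : ℕ} (hK : Fintype.card K = 2 ^ (2 * m + 1)) (hm : 1 ≤ m)
  {Δ : Type*} [Group Δ] {σ : Δ →* GL chevF4.Idx K} (hc : σ.ker ≤ Subgroup.center Δ)
  (hl : ∀ g ∈ twistedF4 K (2 ^ m), ∃ d, σ d = g)

include hK in
theorem swap_commute {p q : ℕ} (hp : p < 12) (hq : q < 12) (h : swapOK p q = true) (t u : K) :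
    ⁅Xp (2 ^ m) p t, Xp (2 ^ m) q u⁆ = 1 := by
  have he : (2 : ℕ) ^ m ≠ 0 := by positivity
  obtain ⟨e0, e1, e2, e3⟩ := pev_vars hK t u
  have e := wev_eq (eq_of_beq h) [t, t ^ 2 ^ m, u, u ^ 2 ^ m]
  rw [wev_append, wev_append, wev_lsym he hp _ (by rw [e1, e0]), wev_lsym he hq _ (by rw [e3, e2]), e0, e2] at e
  exact commutatorElement_eq_one_iff_mul_comm.2 e

include hK in
theorem Uel_live_one {r : ℕ} (hr : r < 12) {f : Par K} (hf : Live [r] f) :
    Uel (2 ^ m) f = Xp (2 ^ m) r (f ⟨r, hr⟩) := by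
  have he : (2 : ℕ) ^ m ≠ 0 := by positivity
  rw [Uel_eq_Xp he]
  have hz : ∀ p : Fin 12, (p : ℕ) ≠ r → Xp (2 ^ m) p.val (f p) = 1 := fun p hp => by
    rw [hf p (by simpa using hp), Xp_zero_right he p.2]
  have : ((List.finRange 12).map fun p => Xp (2 ^ m) p.val (f p)) =
      (List.finRange 12).map fun p => if p = ⟨r, hr⟩ then Xp (2 ^ m) r (f ⟨r, hr⟩) else 1 :=
    List.map_congr_left fun p _ => by
      by_cases h : p = ⟨r, hr⟩
      · subst h; rw [if_pos rfl]
      · rw [if_neg h, hz p fun h' => h (Fin.ext h')]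
  rw [this]
  generalize Xp (2 ^ m) r (f ⟨r, hr⟩) = z
  have key : ∀ (L : List (Fin 12)) (a : Fin 12), L.Nodup →
      (L.map fun p => if p = a then z else 1).prod = if a ∈ L then z else 1 := by
    intro L a
    induction L with
    | nil => simp
    | cons p L ih =>
      intro hL
      rw [List.nodup_cons] at hL
      rw [List.map_cons, List.prod_cons, ih hL.2]
      by_cases h : p = a
      · subst h; simp [hL.1]
      · simp [h, Ne.symm h]
  rw [key _ _ (List.nodup_finRange 12), if_pos (List.mem_finRange _)]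

include hK in
theorem exists_only {r : ℕ} (hr : r < 12) {w : SWord} (h : onlyOK r w = true) (ρ : List K)
    (hw : wev ρ w ∈ twistedF4 K (2 ^ m)) : ∃ v, wev ρ w = Xp (2 ^ m) r v := by
  unfold onlyOK at h
  split at h
  · simp at h
  · rename_i ps hps
    obtain ⟨f, hf, e⟩ := exists_live hK hps (S := [r]) (fun p hp hpS => by
      have h1 := List.all_eq_true.1 h p (List.mem_range.2 hp)
      simp only [List.mem_singleton] at hpS
      simpa [hpS] using h1) ρ hw
    exact ⟨_, e.trans (Uel_live_one hK hr hf)⟩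

include hK hc hl in
/-- Lifts of an exactly additive parameter commute with lifts of itself. -/
theorem lift_self_two (hm : 1 ≤ m) (t u : K) {x a : Δ} (hx : σ x = Xp (2 ^ m) 2 t) (ha : σ a = Xp (2 ^ m) 2 u) :
    ⁅x, a⁆ = 1 := by
  have hk : ord.idxOf 2 < 12 := by decide
  have e2 : ∀ v, (layF4 K (2 ^ m)).X (ord.idxOf 2) v = Xp (2 ^ m) 2 v := fun v => rfl
  have h1 := self_kill (σ := σ) (π := MonoidHom.id Δ) (layF4_ok hK) (fun c => hl _ (tauP_mem hK c))
    (fun j hj t => hl _ (Subgroup.mem_inf.1 (Xp_mem hK (ord_lt j hj) t)).2) hc hk (chiP_surjective hK (ord_lt _ hk))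
    (exists_field hK hm) (fun t u x y hx hy => hc ?_) (fun t v d hd u y _ => ?_) t u x a (hx.trans (e2 t).symm)
    (ha.trans (e2 u).symm)
  · exact h1
  · rw [MonoidHom.id_apply, MonoidHom.mem_ker, map_commutatorElement (f := σ), hx, hy, e2, e2, swap_commute hK (by norm_num) (by norm_num)
      (swap_table (2, 2) (by simp))]
  · have : d ∈ σ.ker := by
      obtain ⟨e0, e1, e2', e3⟩ := pev_vars hK t v
      have he : (2 : ℕ) ^ m ≠ 0 := by positivity
      have e := wev_eq (eq_of_beq (exact_table 2 (by simp))) [t, t ^ 2 ^ m, v, v ^ 2 ^ m]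
      rw [wev_append, wev_lsym he (by norm_num) _ (by rw [pev_padd, pev_padd, e0, e1, e2', e3, add_pow_char_pow]),
        wev_lsym he (by norm_num) _ (by rw [e1, e0]), wev_lsym he (by norm_num) _ (by rw [e3, e2']), pev_padd, e0,
        e2'] at e
      rw [MonoidHom.mem_ker, hd, e2, e2, e2, ← e, inv_mul_cancel]
    exact commutatorElement_eq_one_iff_mul_comm.2 (Subgroup.mem_center_iff.1 (hc this) y).symm

include hK hm hc hl in
/-- Lifts of independent commuting parameters commute when the defect of the first does. -/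
theorem lift_pair {p q : ℕ} (hp : p < 12) (hq : q < 12) (hs : swapOK p q = true)
    (hi : indep (wtOf p) (wtOf q) = true) (u : K) {a : Δ} (ha : σ a = Xp (2 ^ m) q u)
    (hdef : exactOK p = true ∨ ∃ r, r < 12 ∧ onlyOK r (addSym (ord.idxOf p)) = true ∧
      ∀ v d, σ d = Xp (2 ^ m) r v → ⁅d, a⁆ = 1)
    (t : K) {x : Δ} (hx : σ x = Xp (2 ^ m) p t) : ⁅x, a⁆ = 1 := by
  obtain ⟨hip, hi'⟩ := ord_idxOf p hp
  obtain ⟨hkq, hk'⟩ := ord_idxOf q hq
  obtain ⟨c, h1, h2⟩ := exists_witness hK hm hi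
  have e1 : ∀ v, (layF4 K (2 ^ m)).X (ord.idxOf p) v = Xp (2 ^ m) p v := fun v => by simp only [layF4, hip]
  have e2 : ∀ v, (layF4 K (2 ^ m)).X (ord.idxOf q) v = Xp (2 ^ m) q v := fun v => by simp only [layF4, hkq]
  refine pair_kill (σ := σ) (π := MonoidHom.id Δ) (layF4_ok hK) (fun c => hl _ (tauP_mem hK c))
    (fun j hj t => hl _ (Subgroup.mem_inf.1 (Xp_mem hK (ord_lt j hj) t)).2) hc (i := ord.idxOf p)
    (k := ord.idxOf q) (c := c) hi' hk' (by simpa only [layF4, hkq] using h1) (by simpa only [layF4, hip] using h2)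
    (ha.trans (e2 u).symm) (fun t x hx => hc ?_) (fun t v d hd => ?_) t x (hx.trans (e1 t).symm)
  · rw [MonoidHom.id_apply, MonoidHom.mem_ker, map_commutatorElement (f := σ), hx, ha, e1, swap_commute hK hp hq hs]
  · rw [e1, e1, e1] at hd
    obtain ⟨f0, f1, f2, f3⟩ := pev_vars hK t v
    have he : (2 : ℕ) ^ m ≠ 0 := by positivity
    rcases hdef with hex | ⟨r, hr, honly, hcomm⟩
    · have e := wev_eq (eq_of_beq hex) [t, t ^ 2 ^ m, v, v ^ 2 ^ m]
      rw [wev_append, wev_lsym he hp _ (by rw [pev_padd, pev_padd, f0, f1, f2, f3, add_pow_char_pow]),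
        wev_lsym he hp _ (by rw [f1, f0]), wev_lsym he hp _ (by rw [f3, f2]), pev_padd, f0, f2] at e
      have : d ∈ σ.ker := by rw [MonoidHom.mem_ker, hd, ← e, inv_mul_cancel]
      exact commutatorElement_eq_one_iff_mul_comm.2 (Subgroup.mem_center_iff.1 (hc this) a).symm
    · have e : wev [t, t ^ 2 ^ m, v, v ^ 2 ^ m] (addSym (ord.idxOf p)) = σ d := by
        rw [hd, addSym, hip, wev_append, wev_append, wev_reverse _ _ (lsym_lt hp _ _),
          wev_lsym he hp _ (by rw [pev_padd, pev_padd, f0, f1, f2, f3, add_pow_char_pow]),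
          wev_lsym he hp _ (by rw [f1, f0]), wev_lsym he hp _ (by rw [f3, f2]), pev_padd, f0, f2]
      obtain ⟨v', hv'⟩ := exists_only hK hr honly _ (by
        rw [e, hd]
        exact mul_mem (inv_mem (Subgroup.mem_inf.1 (Xp_mem hK hp _)).2)
          (mul_mem (Subgroup.mem_inf.1 (Xp_mem hK hp t)).2 (Subgroup.mem_inf.1 (Xp_mem hK hp v)).2))
      exact hcomm v' d (e ▸ hv')

include hK hm hc hl in
/-- The second coordinate as a commutator: its lifts commute with the first. -/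
theorem lift_block {g c d e u : ℕ} (hg : g < 12) (hc' : c < 12) (hd : d < 12) (he' : e < 12)
    (hgc : ∀ t v x y, σ x = Xp (2 ^ m) g t → σ y = Xp (2 ^ m) c v → ⁅x, y⁆ = 1)
    (hce : ∀ t v x y, σ x = Xp (2 ^ m) c t → σ y = Xp (2 ^ m) e v → ⁅x, y⁆ = 1)
    (heu : ∀ t v x y, σ x = Xp (2 ^ m) e t → σ y = Xp (2 ^ m) u v → ⁅x, y⁆ = 1)
    (hgd : onlyOK e (lsym g (pvar 0) (pvar 1) ++ lsym d (pvar 2) (pvar 3) ++
      (lsym g (pvar 0) (pvar 1)).reverse ++ (lsym d (pvar 2) (pvar 3)).reverse) = true)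
    (hpres : ∀ v : K, ∃ a b : K, ⁅Xp (2 ^ m) c a, Xp (2 ^ m) d b⁆ = Xp (2 ^ m) u v)
    (t v : K) {x y : Δ} (hx : σ x = Xp (2 ^ m) g t) (hy : σ y = Xp (2 ^ m) u v) : ⁅x, y⁆ = 1 := by
  obtain ⟨a, b, hab⟩ := hpres v
  obtain ⟨C, hC⟩ := hl _ (Subgroup.mem_inf.1 (Xp_mem hK hc' a)).2
  obtain ⟨D, hD⟩ := hl _ (Subgroup.mem_inf.1 (Xp_mem hK hd b)).2
  have hCD : σ ⁅C, D⁆ = Xp (2 ^ m) u v := by rw [map_commutatorElement, hC, hD, hab]
  rw [comm_congr hc (x := x) (y := ⁅C, D⁆) rfl (hy.trans hCD.symm)]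
  have h1 : x * C * x⁻¹ = C := by
    have h := hgc t a x C hx hC
    rwa [commutatorElement_def, mul_inv_eq_one] at h
  set E := ⁅x, D⁆
  obtain ⟨w, hw⟩ : ∃ w, σ E = Xp (2 ^ m) e w := by
    have e1 := wev_comm hK hg hd t b
    rw [show σ E = ⁅Xp (2 ^ m) g t, Xp (2 ^ m) d b⁆ by rw [map_commutatorElement, hx, hD], ← e1]
    exact exists_only hK he' hgd _ (by
      rw [e1, commutatorElement_def]
      exact mul_mem (mul_mem (mul_mem (Subgroup.mem_inf.1 (Xp_mem hK hg t)).2 (Subgroup.mem_inf.1 (Xp_mem hK hd b)).2)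
        (inv_mem (Subgroup.mem_inf.1 (Xp_mem hK hg t)).2)) (inv_mem (Subgroup.mem_inf.1 (Xp_mem hK hd b)).2))
  have hCE : C * E * C⁻¹ = E := by
    have h := hce a w C E hC hw
    rwa [commutatorElement_def, mul_inv_eq_one] at h
  have hEU : E * ⁅C, D⁆ * E⁻¹ = ⁅C, D⁆ := by
    have h := heu w v E _ hw hCD
    rwa [commutatorElement_def, mul_inv_eq_one] at h
  have key : x * ⁅C, D⁆ * x⁻¹ = ⁅C, D⁆ := by
    rw [show x * ⁅C, D⁆ * x⁻¹ = ⁅x * C * x⁻¹, E * D⁆ by simp only [E, commutatorElement_def]; group, h1,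
      show ⁅C, E * D⁆ = C * E * C⁻¹ * ⁅C, D⁆ * E⁻¹ by simp only [commutatorElement_def]; group, hCE, hEU]
  rw [commutatorElement_def, key, mul_inv_cancel]

include hK hm hc hl in
/-- The blocks 2, 4 and 6. -/
theorem lift_blocks (t v : K) {x y : Δ} :
    (σ x = Xp (2 ^ m) 1 t → σ y = Xp (2 ^ m) 2 v → ⁅x, y⁆ = 1) ∧
    (σ x = Xp (2 ^ m) 4 t → σ y = Xp (2 ^ m) 5 v → ⁅x, y⁆ = 1) ∧
    (σ x = Xp (2 ^ m) 7 t → σ y = Xp (2 ^ m) 8 v → ⁅x, y⁆ = 1) := by
  have he : (2 : ℕ) ^ m ≠ 0 := by positivity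
  have ex : ∀ p q, p < 12 → q < 12 → (p, q) ∈ [(0, 3), (2, 3), (2, 8), (2, 5), (6, 9), (6, 8), (2, 0), (5, 8), (8, 9)] →
      p ∈ [0, 2, 3, 5, 6, 8, 9] → ∀ t v x y, σ x = Xp (2 ^ m) p t → σ y = Xp (2 ^ m) q v → ⁅x, y⁆ = 1 :=
    fun p q hp hq h h' t v x y hx hy => lift_pair hK hm hc hl hp hq (ex_table (p, q) h).1
      (ex_table (p, q) h).2 v hy (Or.inl (exact_table p h')) t hx
  have symm : ∀ p q, (∀ t v x y, σ x = Xp (2 ^ m) p t → σ y = Xp (2 ^ m) q v → ⁅x, y⁆ = 1) →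
      ∀ t v x y, σ x = Xp (2 ^ m) q t → σ y = Xp (2 ^ m) p v → ⁅x, y⁆ = 1 :=
    fun p q h t v x y hx hy => commutatorElement_eq_one_iff_mul_comm.2
      (commutatorElement_eq_one_iff_mul_comm.1 (h v t y x hy hx)).symm
  have gd : ∀ (g r c : ℕ), g < 12 → r < 12 → c < 12 → (g, c) ∈ [(1, 0), (4, 8), (7, 9)] →
      (g, r) ∈ [(1, 2), (4, 5), (7, 8)] → (∀ t v x y, σ x = Xp (2 ^ m) r t → σ y = Xp (2 ^ m) c v → ⁅x, y⁆ = 1) →
      ∀ t v x y, σ x = Xp (2 ^ m) g t → σ y = Xp (2 ^ m) c v → ⁅x, y⁆ = 1 :=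
    fun g r c hg hr hc' h h' hrc t v x y hx hy => lift_pair hK hm hc hl hg hc' (gd_table (g, c) h).1
      (gd_table (g, c) h).2 v hy
      (Or.inr ⟨r, hr, only_table (g, r) h', fun w d hd => hrc w v d y hd hy⟩) t hx
  obtain ⟨p2, p5, p8⟩ := pres_table
  have pr : ∀ v : K, pev [v, v ^ 2 ^ m] (pvar 0) = v ∧ pev [v, v ^ 2 ^ m] (pvar 1) = v ^ 2 ^ m := fun v => by
    constructor <;> rw [pev_pvar (by simp)] <;> rfl
  have one_pol : ∀ ρ : List K, pev ρ [[]] = 1 := fun ρ => by simp [pev, mev_nil]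
  have two_e : ∀ v : K, (v ^ 2 ^ m * v ^ 2 ^ m) ^ 2 ^ m = v := fun v => by
    rw [mul_pow, ← pow_mul, ← pow_add, ← two_mul, ← mul_assoc]
    exact pow_two_e hK v
  refine ⟨fun hx hy => ?_, fun hx hy => ?_, fun hx hy => ?_⟩
  · refine lift_block hK hm hc hl (c := 0) (d := 4) (e := 3) (u := 2) (by norm_num) (by norm_num) (by norm_num)
      (by norm_num) (gd 1 2 0 (by norm_num) (by norm_num) (by norm_num) (by simp) (by simp)
        (ex 2 0 (by norm_num) (by norm_num) (by simp) (by simp)))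
      (ex 0 3 (by norm_num) (by norm_num) (by simp) (by simp))
      (symm 2 3 (ex 2 3 (by norm_num) (by norm_num) (by simp) (by simp))) (comm_only_table (1, 4, 3) (by simp))
      (fun v => ⟨1, v ^ 2 ^ m * v ^ 2 ^ m, ?_⟩) t v hx hy
    have e := wev_eq p2 [v, v ^ 2 ^ m]
    rw [presSym, wev_append, wev_append, wev_append, wev_reverse _ _ (lsym_lt (by norm_num) _ _),
      wev_reverse _ _ (lsym_lt (by norm_num) _ _), wev_lsym he (by norm_num) _ (by rw [one_pol, one_pow]),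
      wev_lsym he (by norm_num) _ (by rw [pev_pmul, (pr v).2, (pr v).1, two_e]),
      wev_lsym he (by norm_num) _ (by rw [(pr v).2, (pr v).1]), one_pol, pev_pmul, (pr v).2, (pr v).1] at e
    rw [commutatorElement_def]
    exact e
  · refine lift_block hK hm hc hl (c := 8) (d := 0) (e := 2) (u := 5) (by norm_num) (by norm_num) (by norm_num)
      (by norm_num) (gd 4 5 8 (by norm_num) (by norm_num) (by norm_num) (by simp) (by simp)
        (ex 5 8 (by norm_num) (by norm_num) (by simp) (by simp)))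
      (symm 2 8 (ex 2 8 (by norm_num) (by norm_num) (by simp) (by simp)))
      (ex 2 5 (by norm_num) (by norm_num) (by simp) (by simp)) (comm_only_table (4, 0, 2) (by simp))
      (fun v => ⟨v, 1, ?_⟩) t v hx hy
    have e := wev_eq p5 [v, v ^ 2 ^ m]
    rw [presSym, wev_append, wev_append, wev_append, wev_reverse _ _ (lsym_lt (by norm_num) _ _),
      wev_reverse _ _ (lsym_lt (by norm_num) _ _), wev_lsym he (by norm_num) _ (by rw [(pr v).2, (pr v).1]),
      wev_lsym he (by norm_num) _ (by rw [one_pol, one_pow]),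
      wev_lsym he (by norm_num) _ (by rw [(pr v).2, (pr v).1]), one_pol, (pr v).1] at e
    rw [commutatorElement_def]
    exact e
  · refine lift_block hK hm hc hl (c := 9) (d := 4) (e := 6) (u := 8) (by norm_num) (by norm_num) (by norm_num)
      (by norm_num) (gd 7 8 9 (by norm_num) (by norm_num) (by norm_num) (by simp) (by simp)
        (ex 8 9 (by norm_num) (by norm_num) (by simp) (by simp)))
      (symm 6 9 (ex 6 9 (by norm_num) (by norm_num) (by simp) (by simp)))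
      (ex 6 8 (by norm_num) (by norm_num) (by simp) (by simp)) (comm_only_table (7, 4, 6) (by simp))
      (fun v => ⟨1, v ^ 2 ^ m * v ^ 2 ^ m, ?_⟩) t v hx hy
    have e := wev_eq p8 [v, v ^ 2 ^ m]
    rw [presSym, wev_append, wev_append, wev_append, wev_reverse _ _ (lsym_lt (by norm_num) _ _),
      wev_reverse _ _ (lsym_lt (by norm_num) _ _), wev_lsym he (by norm_num) _ (by rw [one_pol, one_pow]),
      wev_lsym he (by norm_num) _ (by rw [pev_pmul, (pr v).2, (pr v).1, two_e]),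
      wev_lsym he (by norm_num) _ (by rw [(pr v).2, (pr v).1]), one_pol, pev_pmul, (pr v).2, (pr v).1] at e
    rw [commutatorElement_def]
    exact e

end Cfsg.Agent.ReeF4Mult
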