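import Cfsg.Agent.ReeF4Mult.Unip

/-!
# The layers of ²F₄(q) satisfy the axioms (owner: helper31)
-/

set_option autoImplicit false
set_option linter.unusedSectionVars false

namespace Cfsg.Agent.ReeF4Mult

open Cfsg.Lie Cfsg.Agent.ChevGrp Cfsg.Agent.ChevTw Cfsg.Agent.TwInvolF4
open scoped commutatorElement

/-- The layers of ²F₄. -/
noncomputable def layF4 (K : Type*) [Field K] (e : ℕ) : Layers (GL chevF4.Idx K) K (Kˣ × Kˣ) where
  n := 12
  X j := Xp e (ord.getD j 0)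
  τ := tauP e
  χ j := chiP e (ord.getD j 0)

variable {K : Type*} [Field K] [CharP K 2] [Fintype K] {m : ℕ} (hK : Fintype.card K = 2 ^ (2 * m + 1))

include hK

theorem layF4_le : (layF4 K (2 ^ m)).L 0 ≤ twistedF4 K (2 ^ m) :=
  (Subgroup.closure_le _).2 fun g ⟨j, t, _, hj, hg⟩ =>
    hg ▸ (Subgroup.mem_inf.1 (Xp_mem hK (ord_lt j hj) t)).2

theorem mem_L_of_live {k : ℕ} {S : List ℕ} (hS : ∀ p ∈ S, p < 12 → k ≤ ord.idxOf p) {f : Par K} (hf : Live S f) :
    Uel (2 ^ m) f ∈ (layF4 K (2 ^ m)).L k := by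
  have he : (2 : ℕ) ^ m ≠ 0 := by positivity
  rw [Uel_eq_Xp he]
  refine Subgroup.list_prod_mem _ fun g hg => ?_
  obtain ⟨p, -, rfl⟩ := List.mem_map.1 hg
  by_cases h : (p : ℕ) ∈ S
  · obtain ⟨h1, h2⟩ := ord_idxOf p p.2
    have := (layF4 K (2 ^ m)).X_mem (hS _ h p.2) h2 (f p)
    simpa only [layF4, h1] using this
  · rw [hf p h, Xp_zero_right he p.2]
    exact one_mem _

theorem mem_L_of_after {k : ℕ} {w : SWord} (h : after k w = true) (ρ : List K)
    (hw : wev ρ w ∈ twistedF4 K (2 ^ m)) : wev ρ w ∈ (layF4 K (2 ^ m)).L (k + 1) := by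
  unfold after at h
  split at h
  · simp at h
  · rename_i ps hps
    obtain ⟨f, hf, e⟩ := exists_live hK hps (S := (List.range 12).filter fun p => decide (k < ord.idxOf p)) (by
      intro p hp hpS
      have h1 := List.all_eq_true.1 h p (List.mem_range.2 hp)
      simp only [List.mem_filter, List.mem_range, decide_eq_true_eq, not_and] at hpS
      simpa [hpS hp] using h1) ρ hw
    rw [e]
    refine mem_L_of_live hK (fun p hp _ => ?_) hf
    simp only [List.mem_filter, decide_eq_true_eq] at hp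
    exact hp.2

/-- The parameters of a lettered symbolic word. -/
theorem pev_vars (t u : K) : pev [t, t ^ 2 ^ m, u, u ^ 2 ^ m] (pvar 0) = t ∧
    pev [t, t ^ 2 ^ m, u, u ^ 2 ^ m] (pvar 1) = t ^ 2 ^ m ∧ pev [t, t ^ 2 ^ m, u, u ^ 2 ^ m] (pvar 2) = u ∧
    pev [t, t ^ 2 ^ m, u, u ^ 2 ^ m] (pvar 3) = u ^ 2 ^ m := by
  refine ⟨?_, ?_, ?_, ?_⟩ <;> rw [pev_pvar (by simp)] <;> rfl

/-- The evaluation of a symbolic commutator. -/
theorem wev_comm {p q : ℕ} (hp : p < 12) (hq : q < 12) (t u : K) :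
    wev [t, t ^ 2 ^ m, u, u ^ 2 ^ m] (lsym p (pvar 0) (pvar 1) ++ lsym q (pvar 2) (pvar 3) ++
      (lsym p (pvar 0) (pvar 1)).reverse ++ (lsym q (pvar 2) (pvar 3)).reverse) =
    ⁅Xp (2 ^ m) p t, Xp (2 ^ m) q u⁆ := by
  have he : (2 : ℕ) ^ m ≠ 0 := by positivity
  obtain ⟨e0, e1, e2, e3⟩ := pev_vars hK t u
  rw [wev_append, wev_append, wev_append, wev_reverse _ _ (lsym_lt hp _ _), wev_reverse _ _ (lsym_lt hq _ _),
    wev_lsym he hp _ (by rw [e1, e0]), wev_lsym he hq _ (by rw [e3, e2]), e0, e2, commutatorElement_def]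

theorem layF4_comm (i j : ℕ) (hij : i ≤ j) (hj : j < 12) (t u : K) :
    ⁅(layF4 K (2 ^ m)).X i t, (layF4 K (2 ^ m)).X j u⁆ ∈ (layF4 K (2 ^ m)).L (j + 1) := by
  have hi := ord_lt i (by omega)
  have hj' := ord_lt j hj
  have e := wev_comm hK hi hj' t u
  have h := mem_L_of_after hK (comm_table i (by omega) j hj hij) [t, t ^ 2 ^ m, u, u ^ 2 ^ m] (by
    rw [commSym, e, commutatorElement_def]
    exact mul_mem (mul_mem (mul_mem (Subgroup.mem_inf.1 (Xp_mem hK hi t)).2 (Subgroup.mem_inf.1 (Xp_mem hK hj' u)).2)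
      (inv_mem (Subgroup.mem_inf.1 (Xp_mem hK hi t)).2)) (inv_mem (Subgroup.mem_inf.1 (Xp_mem hK hj' u)).2))
  rwa [commSym, e] at h

theorem layF4_add (j : ℕ) (hj : j < 12) (t u : K) :
    ((layF4 K (2 ^ m)).X j (t + u))⁻¹ * ((layF4 K (2 ^ m)).X j t * (layF4 K (2 ^ m)).X j u) ∈
      (layF4 K (2 ^ m)).L (j + 1) := by
  have he : (2 : ℕ) ^ m ≠ 0 := by positivity
  have hp := ord_lt j hj
  obtain ⟨e0, e1, e2, e3⟩ := pev_vars hK t u
  have e : wev [t, t ^ 2 ^ m, u, u ^ 2 ^ m] (addSym j) =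
      (Xp (2 ^ m) (ord.getD j 0) (t + u))⁻¹ * (Xp (2 ^ m) (ord.getD j 0) t * Xp (2 ^ m) (ord.getD j 0) u) := by
    rw [addSym, wev_append, wev_append, wev_reverse _ _ (lsym_lt hp _ _),
      wev_lsym he hp _ (by rw [pev_padd, pev_padd, e0, e1, e2, e3, add_pow_char_pow]),
      wev_lsym he hp _ (by rw [e1, e0]), wev_lsym he hp _ (by rw [e3, e2]), pev_padd, e0, e2]
  have h := mem_L_of_after hK (add_table j hj) [t, t ^ 2 ^ m, u, u ^ 2 ^ m] (by
    rw [e]
    exact mul_mem (inv_mem (Subgroup.mem_inf.1 (Xp_mem hK hp _)).2)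
      (mul_mem (Subgroup.mem_inf.1 (Xp_mem hK hp t)).2 (Subgroup.mem_inf.1 (Xp_mem hK hp u)).2))
  rwa [e] at h

theorem layF4_L_zero : (layF4 K (2 ^ m)).L 0 = (glSys (rulesF4 K)).Ubar ⊓ twistedF4 K (2 ^ m) := by
  refine le_antisymm ((Subgroup.closure_le _).2 fun g ⟨j, t, _, hj, hg⟩ => hg ▸ Xp_mem hK (ord_lt j hj) t) ?_
  intro g hg
  obtain ⟨f, rfl⟩ := exists_Uel hK hg
  exact mem_L_of_live hK (S := List.range 12) (fun _ _ _ => Nat.zero_le _) fun j hj =>
    absurd (List.mem_range.2 j.2) hj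

theorem layF4_ok : (layF4 K (2 ^ m)).OK := by
  refine Layers.OK.of_card (fun c j hj t => tauP_conj hK c (ord_lt j hj) t) (fun j hj t u => layF4_add hK j hj t u)
    (fun i j hij hj t u => layF4_comm hK i j hij hj t u) ?_
  rw [layF4_L_zero hK, ← posUnipotent_eq (rulesF4 K), thm_S1090 hK, Nat.card_eq_fintype_card, hK]
  exact le_rfl

theorem chiP_surjective {p : ℕ} (hp : p < 12) : Function.Surjective (chiP (K := K) (2 ^ m) p) := by
  classical
  have key : ∀ x₀ x₁ : ℤ, unitExp x₀ x₁ = true → Function.Surjective fun u : Kˣ => u ^ (x₀ + x₁ * ((2 ^ m : ℕ) : ℤ)) := by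
    intro x₀ x₁ hu
    refine Finite.surjective_of_injective fun a b hab => ?_
    exact mul_inv_eq_one.1 (eq_one_of_unitExp (hE_int hK) _ (by rw [mul_zpow, inv_zpow, hab, mul_inv_cancel]) hu)
  intro v
  rcases unit_table p hp with h | h
  · obtain ⟨u, hu⟩ := key _ _ h v
    exact ⟨(u, 1), by rw [chiP_apply, one_zpow, mul_one]; exact hu⟩
  · obtain ⟨u, hu⟩ := key _ _ h v
    exact ⟨(1, u), by rw [chiP_apply, one_zpow, one_mul]; exact hu⟩

theorem four_le (hm : 1 ≤ m) : 4 < Fintype.card K := by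
  rw [hK]
  calc 4 < 2 ^ 3 := by norm_num
    _ ≤ _ := Nat.pow_le_pow_right (by norm_num) (by omega)

theorem exists_field (hm : 1 ≤ m) : ∃ a : K, a ≠ 0 ∧ a + 1 ≠ 0 ∧ a * a + a + 1 ≠ 0 := by
  classical
  obtain ⟨a, ha⟩ : ∃ a, a ∉ ({0, 1} : Finset K) := by
    by_contra h
    push Not at h
    have h1 : Finset.univ ⊆ ({0, 1} : Finset K) := fun a _ => h a
    have h2 := (Finset.card_le_card h1).trans Finset.card_le_two
    rw [Finset.card_univ] at h2
    have := four_le hK hm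
    omega
  simp only [Finset.mem_insert, Finset.mem_singleton, not_or] at ha
  refine ⟨a, ha.1, fun h => ha.2 (CharTwo.add_eq_zero.1 h), fun h => ha.2 ?_⟩
  have h3 : a ^ 3 = 1 := by linear_combination (a - 1) * h
  have hq := FiniteField.pow_card_sub_one_eq_one a ha.1
  have hg : Nat.gcd 3 (Fintype.card K - 1) = 1 := by
    refine (Nat.Prime.coprime_iff_not_dvd Nat.prime_three).2 fun hd => ?_
    rw [hK] at hd
    have h4 : 2 ^ (2 * m + 1) % 3 = 2 := by rw [pow_succ, pow_mul, Nat.mul_mod, Nat.pow_mod]; norm_num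
    omega
  have := pow_gcd_eq_one.2 ⟨h3, hq⟩
  rwa [hg, pow_one] at this

/-- A weight fixing the layer `k` and moving the layer `i`. -/
theorem exists_witness (hm : 1 ≤ m) {p q : ℕ} (hi : indep (wtOf p) (wtOf q) = true) :
    ∃ c : Kˣ × Kˣ, chiP (2 ^ m) q c = 1 ∧ chiP (2 ^ m) p c ≠ 1 := by
  classical
  obtain ⟨a, ha0, ha1, -⟩ := exists_field hK hm
  set g : Kˣ := Units.mk0 a ha0
  have hg : g ≠ 1 := fun h => ha1 (by
    rw [show a = 1 from congrArg Units.val h, CharTwo.add_self_eq_zero])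
  set E : ℤ := ((2 ^ m : ℕ) : ℤ)
  refine ⟨(g ^ ((wtOf q).2.2.1 + (wtOf q).2.2.2 * E), g ^ (-((wtOf q).1 + (wtOf q).2.1 * E))), ?_, fun h => hg ?_⟩
  · rw [chiP_apply, ← zpow_mul, ← zpow_mul, ← zpow_add]
    refine (congrArg (g ^ ·) ?_).trans (zpow_zero g)
    ring
  · refine eq_one_of_indep (hE_int hK) g ?_ hi
    rw [chiP_apply, ← zpow_mul, ← zpow_mul, ← zpow_add] at h
    refine (congrArg (g ^ ·) ?_).trans h
    ring

end Cfsg.Agent.ReeF4Mult
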