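import Mathlib

/-!
# Central extensions of groups filtered by weight layers

If a group `U` has a filtration by one-parameter layers over a field of characteristic two, stable
under an abelian group acting on each layer by a character, and the weights of different layers
are independent, then a central extension of `U ⋊ T` splits over `U` (owner: helper31).
-/

set_option autoImplicit false

namespace Cfsg.Agent.ReeF4Mult

open Subgroup
open scoped commutatorElement

/-- Layers `X 0, ..., X (n - 1)` with the torus `τ` acting by the characters `χ`. -/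
structure Layers (G K C : Type*) [Group G] [Field K] [CommGroup C] where
  n : ℕ
  X : ℕ → K → G
  τ : C →* G
  χ : ℕ → C →* Kˣ

namespace Layers

variable {G K C : Type*} [Group G] [Field K] [CommGroup C] (Y : Layers G K C)

/-- The group of the layers from `k` on. -/
def L (k : ℕ) : Subgroup G := closure {g | ∃ j t, k ≤ j ∧ j < Y.n ∧ g = Y.X j t}

theorem X_mem {k j : ℕ} (h : k ≤ j) (hj : j < Y.n) (t : K) : Y.X j t ∈ Y.L k :=
  subset_closure ⟨j, t, h, hj, rfl⟩

theorem L_anti {a b : ℕ} (h : a ≤ b) : Y.L b ≤ Y.L a :=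
  (closure_le _).2 fun g ⟨_, t, hj, hjn, hg⟩ => hg ▸ Y.X_mem (h.trans hj) hjn t

theorem L_eq_bot {k : ℕ} (h : Y.n ≤ k) : Y.L k = ⊥ := by
  rw [eq_bot_iff, L, closure_le]
  rintro g ⟨j, t, hj, hjn, rfl⟩
  omega

/-- The axioms of weighted layers. -/
structure OK : Prop where
  conj : ∀ c, ∀ j < Y.n, ∀ t, Y.τ c * Y.X j t * (Y.τ c)⁻¹ = Y.X j ((Y.χ j c : K) * t)
  add : ∀ j < Y.n, ∀ t u, (Y.X j (t + u))⁻¹ * (Y.X j t * Y.X j u) ∈ Y.L (j + 1)
  comm : ∀ i j, i ≤ j → j < Y.n → ∀ t u, ⁅Y.X i t, Y.X j u⁆ ∈ Y.L (j + 1)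
  sep : ∀ k < Y.n, ∀ v, Y.X k v ∈ Y.L (k + 1) → v = 0

variable {Y}

variable [Finite G]

/-- Later layers are normalised by all layers. -/
theorem conj_L_of_comm (hcomm : ∀ i j, i ≤ j → j < Y.n → ∀ t u, ⁅Y.X i t, Y.X j u⁆ ∈ Y.L (j + 1)) (k : ℕ)
    {g : G} (hg : g ∈ Y.L 0) : ∀ l ∈ Y.L k, g * l * g⁻¹ ∈ Y.L k := by
  induction hg using closure_induction with
  | mem g hg =>
    obtain ⟨i, t, -, hi, rfl⟩ := hg
    intro l hl
    induction hl using closure_induction with
    | mem l hl =>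
      obtain ⟨j, u, hj, hjn, rfl⟩ := hl
      by_cases hki : k ≤ i
      · exact mul_mem (mul_mem (Y.X_mem hki hi t) (Y.X_mem hj hjn u)) (inv_mem (Y.X_mem hki hi t))
      · rw [show Y.X i t * Y.X j u * (Y.X i t)⁻¹ = ⁅Y.X i t, Y.X j u⁆ * Y.X j u by
          rw [commutatorElement_def]; group]
        exact mul_mem (Y.L_anti (by omega) (hcomm i j (by omega) hjn t u)) (Y.X_mem hj hjn u)
    | one => simp [one_mem]
    | mul a b _ _ ha hb => have := mul_mem ha hb; simpa [mul_assoc] using this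
    | inv a _ ha => have := inv_mem ha; simpa [mul_assoc] using this
  | one => intro l hl; simpa using hl
  | mul a b _ _ ha hb => intro l hl; have := ha _ (hb l hl); simpa [mul_assoc] using this
  | inv a _ ha =>
    have hp : ∀ n : ℕ, ∀ l ∈ Y.L k, a ^ n * l * (a ^ n)⁻¹ ∈ Y.L k := by
      intro n
      induction n with
      | zero => intro l hl; simpa using hl
      | succ n ih => intro l hl; have := ha _ (ih l hl); simpa [pow_succ', mul_assoc] using this
    intro l hl
    have e : a⁻¹ = a ^ (orderOf a - 1) := by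
      rw [inv_eq_iff_mul_eq_one, ← pow_succ', Nat.sub_add_cancel (orderOf_pos a), pow_orderOf_eq_one]
    rw [e]
    exact hp _ l hl

theorem OK.conj_L (h : Y.OK) (k : ℕ) {g : G} (hg : g ∈ Y.L 0) : ∀ l ∈ Y.L k, g * l * g⁻¹ ∈ Y.L k :=
  conj_L_of_comm h.comm k hg

variable [Finite K]

/-- The layers are separated as soon as the group of all layers is large enough. -/
theorem OK.of_card (conj : ∀ c, ∀ j < Y.n, ∀ t, Y.τ c * Y.X j t * (Y.τ c)⁻¹ = Y.X j ((Y.χ j c : K) * t))
    (add : ∀ j < Y.n, ∀ t u, (Y.X j (t + u))⁻¹ * (Y.X j t * Y.X j u) ∈ Y.L (j + 1))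
    (hcomm : ∀ i j, i ≤ j → j < Y.n → ∀ t u, ⁅Y.X i t, Y.X j u⁆ ∈ Y.L (j + 1))
    (hcard : Nat.card K ^ Y.n ≤ Nat.card ↥(Y.L 0)) : Y.OK := by
  refine ⟨conj, add, hcomm, ?_⟩
  let f : ∀ k, k < Y.n → K × ↥(Y.L (k + 1)) → ↥(Y.L k) := fun k hk x =>
    ⟨Y.X k x.1 * x.2.1, mul_mem (Y.X_mem le_rfl hk x.1) (Y.L_anti (Nat.le_succ k) x.2.2)⟩
  have hf : ∀ k (hk : k < Y.n), Function.Surjective (f k hk) := by
    intro k hk
    let T : Submonoid G :=
      { carrier := {g | ∃ v, ∃ l ∈ Y.L (k + 1), g = Y.X k v * l}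
        one_mem' := by
          refine ⟨0, _, inv_mem (add k hk 0 0), ?_⟩
          rw [add_zero]
          group
        mul_mem' := by
          rintro _ _ ⟨v, l, hl, rfl⟩ ⟨w, l', hl', rfl⟩
          have hx : (Y.X k w)⁻¹ ∈ Y.L 0 := inv_mem (Y.X_mem (Nat.zero_le _) hk w)
          refine ⟨v + w, _, mul_mem (mul_mem (add k hk v w) (conj_L_of_comm hcomm (k + 1) hx l hl)) hl', ?_⟩
          group }
    rintro ⟨g, hg⟩
    have hle : Y.L k ≤ (Subgroup.closure (T : Set G)) := by
      refine (closure_le _).2 ?_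
      rintro _ ⟨j, t, hj, hjn, rfl⟩
      refine subset_closure ?_
      rcases hj.eq_or_lt with rfl | hlt
      · exact ⟨t, 1, one_mem _, (mul_one _).symm⟩
      · obtain ⟨v, l, hl, hv⟩ := T.one_mem
        exact ⟨v, l * Y.X j t, mul_mem hl (Y.X_mem (by omega) hjn t), by rw [← mul_assoc, ← hv, one_mul]⟩
    have hT : (Subgroup.closure (T : Set G)).toSubmonoid = T := by
      rw [Subgroup.closure_toSubmonoid_of_finite, Submonoid.closure_eq]
    have hgT : g ∈ T := hT ▸ hle hg
    obtain ⟨v, l, hl, rfl⟩ := hgT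
    exact ⟨(v, ⟨l, hl⟩), rfl⟩
  have hstep : ∀ k, k < Y.n → Nat.card ↥(Y.L k) ≤ Nat.card K * Nat.card ↥(Y.L (k + 1)) := fun k hk => by
    rw [← Nat.card_prod]
    exact Nat.card_le_card_of_surjective _ (hf k hk)
  have hpos : 0 < Nat.card K := Nat.card_pos
  have up : ∀ r k, Y.n - k = r → Nat.card ↥(Y.L k) ≤ Nat.card K ^ r := by
    intro r
    induction r with
    | zero => intro k hk; rw [Y.L_eq_bot (by omega), Subgroup.card_bot, pow_zero]
    | succ r ih =>
      intro k hk
      exact (hstep k (by omega)).trans (by rw [pow_succ']; exact Nat.mul_le_mul_left _ (ih _ (by omega)))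
  have down : ∀ k, k ≤ Y.n → Nat.card ↥(Y.L 0) ≤ Nat.card K ^ k * Nat.card ↥(Y.L k) := by
    intro k
    induction k with
    | zero => simp
    | succ k ih =>
      intro hk
      refine (ih (by omega)).trans ?_
      rw [pow_succ, mul_assoc]
      exact Nat.mul_le_mul_left _ (hstep k (by omega))
  intro k hk v hv
  by_contra hv0
  have hlt : Nat.card ↥(Y.L k) < Nat.card K * Nat.card ↥(Y.L (k + 1)) := by
    rw [← Nat.card_prod]
    refine lt_of_le_of_ne (Nat.card_le_card_of_surjective _ (hf k hk)) fun e => ?_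
    have hinj := ((hf k hk).bijective_of_nat_card_le e.ge).1
    refine hv0 (congrArg Prod.fst (hinj (a₁ := (v, 1))
      (a₂ := (0, ⟨(Y.X k 0)⁻¹ * Y.X k v, mul_mem (inv_mem ?_) hv⟩)) ?_))
    · have h0 := add k hk 0 0
      rw [add_zero, inv_mul_cancel_left] at h0
      exact h0
    · exact Subtype.ext (by simp [f])
  have h1 := (down k hk.le).trans_lt (Nat.mul_lt_mul_of_pos_left hlt (pow_pos hpos k))
  have h2 := Nat.mul_le_mul_left (Nat.card K ^ k * Nat.card K) (up (Y.n - (k + 1)) (k + 1) rfl)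
  rw [← mul_assoc] at h1
  have h3 : Nat.card K ^ k * Nat.card K * Nat.card K ^ (Y.n - (k + 1)) = Nat.card K ^ Y.n := by
    rw [← pow_succ, ← pow_add]
    congr 1
    omega
  omega

end Layers

end Cfsg.Agent.ReeF4Mult
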