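import Cfsg.Agent.ReeF4Mult.Layers

/-!
# Pairings of weighted layers in a central extension

Commutators of lifts of two layers, taken modulo a normal subgroup, vanish when a torus element
fixes one weight and moves the other, and for one layer with itself (owner: helper31).
-/

set_option autoImplicit false

namespace Cfsg.Agent.ReeF4Mult

open Subgroup
open scoped commutatorElement

variable {D G : Type*} [Group D] [Group G]

/-- Commutators do not depend on the lifts. -/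
theorem comm_congr {σ : D →* G} (hc : σ.ker ≤ center D) {x y x' y' : D} (hx : σ x' = σ x)
    (hy : σ y' = σ y) : ⁅x', y'⁆ = ⁅x, y⁆ := by
  have hz : ∀ {a b : D}, σ b = σ a → ∃ z ∈ center D, b = a * z := fun {a b} h =>
    ⟨a⁻¹ * b, hc (by rw [MonoidHom.mem_ker, map_mul, map_inv, h, inv_mul_cancel]), by group⟩
  obtain ⟨z, hzc, rfl⟩ := hz hx
  obtain ⟨w, hwc, rfl⟩ := hz hy
  have h1 : ∀ g, Commute z g := fun g => (mem_center_iff.1 hzc g).symm
  have h2 : ∀ g, Commute w g := fun g => (mem_center_iff.1 hwc g).symm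
  simp only [commutatorElement_def, mul_inv_rev]
  calc x * z * (y * w) * (z⁻¹ * x⁻¹) * (w⁻¹ * y⁻¹)
      = x * (z * (y * w)) * z⁻¹ * x⁻¹ * w⁻¹ * y⁻¹ := by group
    _ = x * y * w * x⁻¹ * w⁻¹ * y⁻¹ := by rw [(h1 (y * w)).eq]; group
    _ = x * y * (w * x⁻¹) * w⁻¹ * y⁻¹ := by group
    _ = x * y * x⁻¹ * y⁻¹ := by rw [(h2 x⁻¹).eq]; group

/-- The first entry of a commutator is multiplicative on central values. -/
theorem comm_mul_left {Q : Type*} [Group Q] {x y a : Q} (h : ⁅y, a⁆ ∈ center Q) :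
    ⁅x * y, a⁆ = ⁅x, a⁆ * ⁅y, a⁆ := by
  rw [show ⁅x * y, a⁆ = x * ⁅y, a⁆ * x⁻¹ * ⁅x, a⁆ by simp only [commutatorElement_def]; group,
    mem_center_iff.1 h x, mul_inv_cancel_right, ← mem_center_iff.1 h]

/-- The second entry of a commutator is multiplicative on central values. -/
theorem comm_mul_right {Q : Type*} [Group Q] {x y a : Q} (h : ⁅a, y⁆ ∈ center Q) :
    ⁅a, x * y⁆ = ⁅a, x⁆ * ⁅a, y⁆ := by
  rw [show ⁅a, x * y⁆ = ⁅a, x⁆ * (x * ⁅a, y⁆ * x⁻¹) by simp only [commutatorElement_def]; group,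
    mem_center_iff.1 h x, mul_inv_cancel_right]

/-- A lift of a member of a subgroup generated by liftable elements. -/
theorem mem_of_map_le {σ : D →* G} {N : Subgroup D} (hN : σ.ker ≤ N) {d : D} (h : σ d ∈ N.map σ) :
    d ∈ N := by
  obtain ⟨n, hn, he⟩ := h
  have : n⁻¹ * d ∈ N := hN (by rw [MonoidHom.mem_ker, map_mul, map_inv, he, inv_mul_cancel])
  simpa using N.mul_mem hn this

variable {K C : Type*} [Field K] [CommGroup C] {Y : Layers G K C} {Q : Type*} [Group Q]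
  {σ : D →* G} {π : D →* Q}

section

variable (hY : Y.OK) (hτ : ∀ c, ∃ d, σ d = Y.τ c) (hX : ∀ j < Y.n, ∀ t, ∃ d, σ d = Y.X j t)
  (hc : σ.ker ≤ center D)

include hY hτ hc in
theorem conj_value (c : C) {i k : ℕ} (hi : i < Y.n) (hk : k < Y.n) {t u : K} {x a x' a' : D}
    (hx : σ x = Y.X i t) (ha : σ a = Y.X k u) (hx' : σ x' = Y.X i ((Y.χ i c : K) * t))
    (ha' : σ a' = Y.X k ((Y.χ k c : K) * u)) (hcen : π ⁅x, a⁆ ∈ center Q) :
    π ⁅x', a'⁆ = π ⁅x, a⁆ := by
  obtain ⟨τ, hτc⟩ := hτ c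
  have e : ⁅x', a'⁆ = τ * ⁅x, a⁆ * τ⁻¹ := by
    rw [comm_congr hc (x := τ * x * τ⁻¹) (y := τ * a * τ⁻¹)
      (by rw [hx', map_mul, map_mul, map_inv, hτc, hx, hY.conj c i hi])
      (by rw [ha', map_mul, map_mul, map_inv, hτc, ha, hY.conj c k hk])]
    simp only [commutatorElement_def]
    group
  rw [e, map_mul, map_mul, mem_center_iff.1 hcen (π τ), map_inv, mul_inv_cancel_right]

include hY hτ hX hc in
theorem pair_kill {i k : ℕ} (hi : i < Y.n) (hk : k < Y.n) {c : C} (h1 : Y.χ k c = 1) (h2 : Y.χ i c ≠ 1)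
    {u : K} {a : D} (ha : σ a = Y.X k u)
    (hcen : ∀ t x, σ x = Y.X i t → π ⁅x, a⁆ ∈ center Q)
    (hdef : ∀ t v d, σ d = (Y.X i (t + v))⁻¹ * (Y.X i t * Y.X i v) → π ⁅d, a⁆ = 1) :
    ∀ t x, σ x = Y.X i t → π ⁅x, a⁆ = 1 := by
  intro t x hx
  set α : K := (Y.χ i c : K)
  have hα : α - 1 ≠ 0 := sub_ne_zero.2 fun e => h2 (Units.ext e)
  set t' := t / (α - 1) with ht'
  have hsum : t' + t = α * t' := by
    rw [ht']
    field_simp
    ring
  obtain ⟨x₁, hx₁⟩ := hX i hi t'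
  obtain ⟨xs, hxs⟩ := hX i hi (t' + t)
  have hd := hdef t' t (xs⁻¹ * (x₁ * x)) (by rw [map_mul, map_inv, map_mul, hxs, hx₁, hx])
  have e1 : π ⁅xs, a⁆ = π ⁅x₁, a⁆ :=
    conj_value hY hτ hc c hi hk hx₁ ha (by rw [hxs, hsum]) (by rw [ha, h1, Units.val_one, one_mul])
      (hcen _ _ hx₁)
  have hc2 : ⁅π x, π a⁆ ∈ center Q := by rw [← map_commutatorElement]; exact hcen _ _ hx
  have hd' : ⁅π (xs⁻¹ * (x₁ * x)), π a⁆ ∈ center Q := by
    rw [← map_commutatorElement, hd]; exact one_mem _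
  have e2 : ⁅π xs * π (xs⁻¹ * (x₁ * x)), π a⁆ = ⁅π x₁ * π x, π a⁆ := by
    rw [← map_mul, mul_inv_cancel_left, map_mul]
  rw [comm_mul_left hd', comm_mul_left hc2, ← map_commutatorElement, ← map_commutatorElement,
    ← map_commutatorElement, ← map_commutatorElement, hd, mul_one, e1] at e2
  exact mul_left_cancel (e2.symm.trans (mul_one _).symm)

include hY hτ hX hc in
theorem self_kill [CharP K 2] {k : ℕ} (hk : k < Y.n) (hsurj : Function.Surjective (Y.χ k))
    (hK : ∃ a : K, a ≠ 0 ∧ a + 1 ≠ 0 ∧ a * a + a + 1 ≠ 0)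
    (hcen : ∀ t u x y, σ x = Y.X k t → σ y = Y.X k u → π ⁅x, y⁆ ∈ center Q)
    (hdef : ∀ t v d, σ d = (Y.X k (t + v))⁻¹ * (Y.X k t * Y.X k v) →
      ∀ u y, σ y = Y.X k u → π ⁅d, y⁆ = 1) :
    ∀ t u x y, σ x = Y.X k t → σ y = Y.X k u → π ⁅x, y⁆ = 1 := by
  choose l hl using hX k hk
  let f : K → K → Q := fun t u => π ⁅l t, l u⁆
  have addL : ∀ t v u, f (t + v) u = f t u * f v u := by
    intro t v u
    have hd := hdef t v ((l (t + v))⁻¹ * (l t * l v)) (by rw [map_mul, map_inv, map_mul, hl, hl, hl])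
      u (l u) (hl u)
    have hd' : ⁅π ((l (t + v))⁻¹ * (l t * l v)), π (l u)⁆ ∈ center Q := by
      rw [← map_commutatorElement, hd]; exact one_mem _
    have e2 : ⁅π (l (t + v)) * π ((l (t + v))⁻¹ * (l t * l v)), π (l u)⁆ = ⁅π (l t) * π (l v), π (l u)⁆ := by
      rw [← map_mul, mul_inv_cancel_left, map_mul]
    rw [comm_mul_left hd', comm_mul_left (by rw [← map_commutatorElement]; exact hcen _ _ _ _ (hl v) (hl u)),
      ← map_commutatorElement, ← map_commutatorElement, ← map_commutatorElement, ← map_commutatorElement, hd,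
      mul_one] at e2
    exact e2
  have swap : ∀ t u, f u t = (f t u)⁻¹ := fun t u => by
    show π ⁅l u, l t⁆ = (π ⁅l t, l u⁆)⁻¹
    rw [← map_inv, commutatorElement_inv]
  have hcf : ∀ t u, f t u ∈ center Q := fun t u => hcen _ _ _ _ (hl t) (hl u)
  have addR : ∀ t u v, f t (u + v) = f t u * f t v := by
    intro t u v
    rw [← inv_inv (f t (u + v)), ← swap, addL, mul_inv_rev, swap t u, swap t v, inv_inv, inv_inv,
      mem_center_iff.1 (hcf t u) (f t v)]
  have equi : ∀ α : K, α ≠ 0 → ∀ t u, f (α * t) (α * u) = f t u := by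
    intro α hα t u
    obtain ⟨c, hcα⟩ := hsurj (Units.mk0 α hα)
    have hv : (Y.χ k c : K) = α := by rw [hcα, Units.val_mk0]
    exact conj_value hY hτ hc c hk hk (hl t) (hl u) (by rw [hl, hv]) (by rw [hl, hv]) (hcf t u)
  obtain ⟨a, ha0, ha1, ha2⟩ := hK
  have h0 : ∀ t, f t 0 = 1 := fun t => by
    have e := addR t 0 0
    rw [add_zero] at e
    exact mul_left_cancel (e.symm.trans (mul_one _).symm)
  have key : ∀ t u, f t u = 1 := by
    intro t u
    set v := u * a / (a * a + a + 1) with hv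
    have e1 : f t v = f t ((a + 1) * v) * f t ((a + 1) / a * v) := by
      rw [← equi (a + 1) ha1 t v, add_mul, addL, one_mul]
      have e3 : f (a * t) ((a + 1) * v) = f t ((a + 1) / a * v) := by
        rw [← equi a ha0 t ((a + 1) / a * v)]
        congr 1
        field_simp
      rw [e3, mem_center_iff.1 (hcf t ((a + 1) / a * v)) _]
    have e4 : u = v + ((a + 1) * v + (a + 1) / a * v) := by
      have h2 : (2 : K) = 0 := CharTwo.two_eq_zero
      have e5 : v + ((a + 1) * v + (a + 1) / a * v) = v * ((a * a + a + 1) / a) + 2 * v := by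
        field_simp
        ring
      rw [e5, h2, zero_mul, add_zero, hv, div_mul_div_comm, mul_comm (a * a + a + 1) a, mul_assoc,
        mul_div_assoc, div_self (mul_ne_zero ha0 ha2), mul_one]
    conv_lhs => rw [e4, addR, addR, ← e1, ← addR, CharTwo.add_self_eq_zero, h0]
  intro t u x y hx hy
  rw [comm_congr hc (x := l t) (y := l u) (by rw [hx, hl]) (by rw [hy, hl])]
  exact key t u

end

end Cfsg.Agent.ReeF4Mult
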