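import Cfsg.Agent.ReeF4Mult.Block

/-!
# The last block, by reflection (owner: helper31)
-/

set_option autoImplicit false
set_option linter.unusedSectionVars false

namespace Cfsg.Agent.ReeF4Mult

open Cfsg.Lie Cfsg.Agent.ChevGrp Cfsg.Agent.ChevTw Cfsg.Agent.TwInvolF4
open scoped commutatorElement

/-- A parameter with its roots moved by the first node. -/
def reflLsym (p : ℕ) : SWord :=
  List.zip ((slotsOf p).map fun s => act chevF4 (ChevTw.twF4.wJ chevF4 ⟨0, by decide⟩) s.1)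
    ((List.range (slotsOf p).length).map pvar)

/-- Whether only the parameters in `S` occur. -/
def onlyS (S : List ℕ) (w : SWord) : Bool :=
  match pick coordPos w with
  | none => false
  | some ps => (List.range 12).all fun p => (ps.getD p [] == []) || S.contains p

theorem refl_table : onlyS [1, 2] (reflLsym 10) = true ∧ onlyS [2] (reflLsym 11) = true := by decide +kernel

variable {K : Type*} [Field K] [CharP K 2] [Fintype K] {m : ℕ} (hK : Fintype.card K = 2 ^ (2 * m + 1)) (hm : 1 ≤ m)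
  {Δ : Type*} [Group Δ] {σ : Δ →* GL chevF4.Idx K} (hc : σ.ker ≤ Subgroup.center Δ)
  (hl : ∀ g ∈ twistedF4 K (2 ^ m), ∃ d, σ d = g)

include hK in
theorem exists_refl : ∃ n ∈ twistedF4 K (2 ^ m),
    (∀ t, ∃ a b, n * Xp (2 ^ m) 10 t * n⁻¹ = Xp (2 ^ m) 1 a * Xp (2 ^ m) 2 b) ∧
    ∀ u, ∃ c, n * Xp (2 ^ m) 11 u * n⁻¹ = Xp (2 ^ m) 2 c := by
  have he : (2 : ℕ) ^ m ≠ 0 := by positivity
  obtain ⟨len, hR⟩ := (rulesF4 K).root
  set J : Fin twF4.nOrb := ⟨0, by decide⟩
  obtain ⟨-, ⟨a, -, hn⟩, hT⟩ := (grpF4 hK).nJ_spec (rulesF4 K) hR J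
  set n := (grpF4 hK).nJ (rulesF4 K) hR J
  refine ⟨n, hT, ?_⟩
  have conj : ∀ p, p < 12 → ∀ t : K, n * Xp (2 ^ m) p t * n⁻¹ =
      wev ((slotsOf p).map fun s => a s.1 * t ^ (s.2.1 + s.2.2 * 2 ^ m)) (reflLsym p) := by
    intro p hp t
    have hw : ∀ (L : List (ℕ × ℕ × ℕ)) (pre : List K), (∀ s ∈ L, s.1 < chevF4.nroots) →
        n * ((L.map fun s => xGL chevF4 K s.1 (t ^ (s.2.1 + s.2.2 * 2 ^ m))).prod) * n⁻¹ =
          wev (pre ++ L.map fun s => a s.1 * t ^ (s.2.1 + s.2.2 * 2 ^ m))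
            (List.zip (L.map fun s => act chevF4 (ChevTw.twF4.wJ chevF4 ⟨0, by decide⟩) s.1)
              ((List.range L.length).map fun k => pvar (pre.length + k))) := by
      intro L
      induction L with
      | nil => intro pre _; simp [wev]
      | cons s L ih =>
        intro pre hL
        have h1 := hn s.1 (hL s List.mem_cons_self) (t ^ (s.2.1 + s.2.2 * 2 ^ m))
        have h2 := ih (pre ++ [a s.1 * t ^ (s.2.1 + s.2.2 * 2 ^ m)]) fun x hx => hL x (List.mem_cons_of_mem _ hx)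
        simp only [List.length_cons, List.range_succ_eq_map, List.map_cons, List.map_map, List.zip_cons_cons,
          List.prod_cons, wev_cons, Nat.add_zero]
        rw [pev_pvar (by simp), List.getD_append_right _ _ _ _ le_rfl, Nat.sub_self, List.getD_cons_zero]
        simp only [List.length_append, List.length_singleton, List.append_assoc, List.singleton_append] at h2
        rw [show ((fun k => pvar (pre.length + k)) ∘ Nat.succ : ℕ → Pol) = fun k => pvar (pre.length + 1 + k) from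
          funext fun k => congrArg pvar (by omega : pre.length + (k + 1) = pre.length + 1 + k), ← h2]
        have h1' : n * xGL chevF4 K s.1 (t ^ (s.2.1 + s.2.2 * 2 ^ m)) * n⁻¹ =
            xGL chevF4 K (act chevF4 (ChevTw.twF4.wJ chevF4 ⟨0, by decide⟩) s.1) (a s.1 * t ^ (s.2.1 + s.2.2 * 2 ^ m)) := h1
        rw [← h1']
        group
    have := hw (slotsOf p) [] (slot_lt p hp)
    simp only [List.nil_append, List.length_nil, Nat.zero_add] at this
    exact this
  have get : ∀ (p : ℕ), p < 12 → ∀ (S : List ℕ), onlyS S (reflLsym p) = true → ∀ t : K,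
      ∃ f : Par K, Live S f ∧ n * Xp (2 ^ m) p t * n⁻¹ = Uel (2 ^ m) f := by
    intro p hp S h t
    unfold onlyS at h
    split at h
    · simp at h
    · rename_i ps hps
      rw [conj p hp t]
      refine exists_live hK hps (fun q hq hqS => ?_) _ ?_
      · have h1 := List.all_eq_true.1 h q (List.mem_range.2 hq)
        simpa [hqS] using h1
      · rw [← conj p hp t]
        exact mul_mem (mul_mem hT (Subgroup.mem_inf.1 (Xp_mem hK hp t)).2) (inv_mem hT)
  refine ⟨fun t => ?_, fun u => ?_⟩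
  · obtain ⟨f, hf, e⟩ := get 10 (by norm_num) _ refl_table.1 t
    refine ⟨f 1, f 2, e.trans ?_⟩
    have hz : ∀ p : Fin 12, (p : ℕ) ≠ 1 → (p : ℕ) ≠ 2 → Xp (2 ^ m) p.val (f p) = 1 := fun p h1 h2 => by
      rw [hf p (by simp [h1, h2]), Xp_zero_right he p.2]
    have hr : (List.finRange 12).map (fun p => Xp (2 ^ m) p.val (f p)) = [Xp (2 ^ m) (0 : Fin 12).val (f 0),
        Xp (2 ^ m) (1 : Fin 12).val (f 1), Xp (2 ^ m) (2 : Fin 12).val (f 2), Xp (2 ^ m) (3 : Fin 12).val (f 3),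
        Xp (2 ^ m) (4 : Fin 12).val (f 4), Xp (2 ^ m) (5 : Fin 12).val (f 5), Xp (2 ^ m) (6 : Fin 12).val (f 6),
        Xp (2 ^ m) (7 : Fin 12).val (f 7), Xp (2 ^ m) (8 : Fin 12).val (f 8), Xp (2 ^ m) (9 : Fin 12).val (f 9),
        Xp (2 ^ m) (10 : Fin 12).val (f 10), Xp (2 ^ m) (11 : Fin 12).val (f 11)] := rfl
    rw [Uel_eq_Xp he, hr, hz 0 (by decide) (by decide), hz 3 (by decide) (by decide), hz 4 (by decide) (by decide),
      hz 5 (by decide) (by decide), hz 6 (by decide) (by decide), hz 7 (by decide) (by decide),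
      hz 8 (by decide) (by decide), hz 9 (by decide) (by decide), hz 10 (by decide) (by decide),
      hz 11 (by decide) (by decide)]
    simp
  · obtain ⟨f, hf, e⟩ := get 11 (by norm_num) _ refl_table.2 u
    exact ⟨_, e.trans (Uel_live_one hK (by norm_num) hf)⟩

include hK hm hc hl in
/-- The last block. -/
theorem lift_block_eight (t v : K) {x y : Δ} (hx : σ x = Xp (2 ^ m) 10 t) (hy : σ y = Xp (2 ^ m) 11 v) :
    ⁅x, y⁆ = 1 := by
  obtain ⟨n, hnT, h10, h11⟩ := exists_refl hK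
  obtain ⟨a, b, hab⟩ := h10 t
  obtain ⟨c, hc'⟩ := h11 v
  obtain ⟨N, hN⟩ := hl n hnT
  obtain ⟨A, hA⟩ := hl _ (Subgroup.mem_inf.1 (Xp_mem hK (show 1 < 12 by norm_num) a)).2
  obtain ⟨B, hB⟩ := hl _ (Subgroup.mem_inf.1 (Xp_mem hK (show 2 < 12 by norm_num) b)).2
  obtain ⟨C, hC⟩ := hl _ (Subgroup.mem_inf.1 (Xp_mem hK (show 2 < 12 by norm_num) c)).2
  have h1 := (lift_blocks hK hm hc hl a c (x := A) (y := C)).1 hA hC
  have h2 := lift_self_two hK hc hl hm b c hB hC
  have e : ⁅N * x * N⁻¹, N * y * N⁻¹⁆ = 1 := by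
    rw [comm_congr hc (x := A * B) (y := C) (by rw [map_mul, map_mul, map_inv, hN, hx, hab, map_mul, hA, hB])
      (by rw [map_mul, map_mul, map_inv, hN, hy, hc', hC]), comm_mul_left (by rw [h2]; exact one_mem _), h1, h2,
      one_mul]
  have e' : ⁅x, y⁆ = N⁻¹ * ⁅N * x * N⁻¹, N * y * N⁻¹⁆ * N := by simp only [commutatorElement_def]; group
  rw [e', e]
  group

include hK hm hc hl in
/-- The dependent layers have commuting lifts. -/
theorem lift_dep {i k : ℕ} (hik : i < k) (hk : k < 12)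
    (h : ∀ c, (layF4 K (2 ^ m)).χ k c = 1 → (layF4 K (2 ^ m)).χ i c = 1) (t u : K) (x a : Δ)
    (hx : σ x = (layF4 K (2 ^ m)).X i t) (ha : σ a = (layF4 K (2 ^ m)).X k u) : ⁅x, a⁆ = 1 := by
  have hx' : σ x = Xp (2 ^ m) (ord.getD i 0) t := hx
  have ha' : σ a = Xp (2 ^ m) (ord.getD k 0) u := ha
  rcases Bool.or_eq_true_iff.1 (indep_table ⟨i, by omega⟩ ⟨k, hk⟩ hik) with h' | h'
  · obtain ⟨c, h1, h2⟩ := exists_witness hK hm h'
    exact absurd (h c h1) h2
  · simp only [depPairs, List.contains_eq_mem, List.mem_cons, Prod.mk.injEq, List.not_mem_nil, or_false,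
      decide_eq_true_eq] at h'
    rcases h' with ⟨e1, e2⟩ | ⟨e1, e2⟩ | ⟨e1, e2⟩ | ⟨e1, e2⟩ <;> rw [e1] at hx' <;> rw [e2] at ha'
    · exact (lift_blocks hK hm hc hl t u).1 hx' ha'
    · exact (lift_blocks hK hm hc hl t u).2.1 hx' ha'
    · exact (lift_blocks hK hm hc hl t u).2.2 hx' ha'
    · exact lift_block_eight hK hm hc hl t u hx' ha'

end Cfsg.Agent.ReeF4Mult
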