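import Cfsg.Agent.ReeF4Mult.Reflect
import Cfsg.Agent.CentralExt.Sylow
import Cfsg.Agent.ChevTwOrd.F4
import Cfsg.Agent.TwInvolF4.Count

/-!
# The multiplier of ²F₄(q) has odd order (owner: helper31)
-/

set_option autoImplicit false
set_option linter.unusedSectionVars false
set_option linter.style.haveILetI false

namespace Cfsg.Agent.ReeF4Mult

open Cfsg.Lie Cfsg.Agent.ChevGrp Cfsg.Agent.ChevTw Cfsg.Agent.TwInvolF4 Cfsg.Agent.CentralExt

universe u

variable {K : Type u} [Field K] [Fintype K] {m : ℕ}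

theorem not_two_dvd (hm : 1 ≤ m) (hK : Fintype.card K = 2 ^ (2 * m + 1)) :
    ¬ 2 ∣ Nat.card (schurMult ↥(twistedF4 K (2 ^ m))) := by
  haveI : CharP K 2 := charTwo_of_card hK
  haveI : Fact (Nat.Prime 2) := ⟨Nat.prime_two⟩
  refine not_dvd_card_schurMult_of_forall 2 fun Δ _ _ τ hτ hp => ?_
  let T := twistedF4 K (2 ^ m)
  let σ : Δ →* GL chevF4.Idx K := T.subtype.comp τ
  have hker : σ.ker = τ.ker := by
    ext d
    simp only [MonoidHom.mem_ker, σ, MonoidHom.comp_apply, Subgroup.coe_subtype]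
    exact ⟨fun h => Subtype.ext h, fun h => congrArg Subtype.val h⟩
  have hc : σ.ker ≤ Subgroup.center Δ := hker ▸ hτ.2.1
  have hl : ∀ g ∈ T, ∃ d, σ d = g := fun g hg => by
    obtain ⟨d, hd⟩ := hτ.1 ⟨g, hg⟩
    exact ⟨d, (congrArg Subtype.val hd :)⟩
  let Y := layF4 K (2 ^ m)
  let B : Subgroup (GL chevF4.Idx K) := Y.L 0 ⊔ Y.τ.range
  let D : Subgroup Δ := B.comap σ
  let σD : D →* GL chevF4.Idx K := σ.comp D.subtype
  have hlD : ∀ g ∈ T, g ∈ B → ∃ d : D, σD d = g := fun g hg hB => by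
    obtain ⟨d, rfl⟩ := hl g hg
    exact ⟨⟨d, hB⟩, rfl⟩
  have hS : Splits Y σD :=
    { ok := layF4_ok hK
      lift_τ := fun c => hlD _ (tauP_mem hK c) (le_sup_right (a := Y.L 0) ⟨c, rfl⟩)
      lift_X := fun j hj t => hlD _ (Subgroup.mem_inf.1 (Xp_mem hK (ord_lt j hj) t)).2
        (le_sup_left (b := Y.τ.range) (Y.X_mem (Nat.zero_le _) hj t))
      central := fun z hz => Subgroup.mem_center_iff.2 fun g => Subtype.ext
        (Subgroup.mem_center_iff.1 (hc (show (z : Δ) ∈ σ.ker from hz)) (g : Δ))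
      gen := fun d => d.2
      surj := fun k hk => chiP_surjective hK (ord_lt k hk)
      field := exists_field hK hm
      block := fun i k hik hk h t u x a hx ha => Subtype.ext
        (lift_dep hK hm hc hl hik hk h t u (x : Δ) (a : Δ) hx ha) }
  have hsplit := hS.ker_commutator
  let H : Subgroup Δ := (Y.L 0).comap σ
  have hindex : ¬ 2 ∣ H.index := by
    intro hd
    have e : H.index = ((Y.L 0).subgroupOf T).index := by
      rw [← Subgroup.index_comap_of_surjective _ hτ.1]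
      rfl
    have hc1 : Nat.card ↥((Y.L 0).subgroupOf T) = (2 ^ (2 * m + 1)) ^ 12 := by
      rw [Nat.card_congr (Subgroup.subgroupOfEquivOfLe (layF4_le hK)).toEquiv, layF4_L_zero hK,
        ← posUnipotent_eq (rulesF4 K), thm_S1090 hK]
    have h2 := Subgroup.card_mul_index ((Y.L 0).subgroupOf T)
    rw [hc1, ← e, ChevTwOrd.order_F4 hK, mul_assoc, mul_assoc, mul_assoc, Nat.mul_right_inj (by positivity)] at h2
    refine odd_cofactor hK ?_
    rw [mul_assoc, mul_assoc, ← h2]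
    exact hd
  rw [eq_bot_iff]
  intro z hz
  obtain ⟨j, hj⟩ := hp ⟨z, hz⟩
  have hzj : z ^ 2 ^ j = 1 := congrArg Subtype.val hj
  have hzH : z ∈ H := by
    rw [← hker, MonoidHom.mem_ker] at hz
    rw [Subgroup.mem_comap, hz]
    exact one_mem _
  haveI : H.FiniteIndex := ⟨fun h => hindex (by rw [h]; exact dvd_zero 2)⟩
  have hmem : z ∈ (commutator H).map H.subtype := mem_commutator_of_coprime H (hτ.2.1 hz) (hτ.2.2 hz) hzH hzj
    (Nat.Coprime.pow_right j ((Nat.Prime.coprime_iff_not_dvd Nat.prime_two).2 hindex).symm)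
  have hHD : H ≤ D := Subgroup.comap_mono le_sup_left
  have e : (commutator H).map H.subtype =
      ((⁅(Y.L 0).comap σD, (Y.L 0).comap σD⁆ : Subgroup D)).map D.subtype := by
    rw [Subgroup.map_commutator, Subgroup.map_subtype_commutator,
      show ((Y.L 0).comap σD).map D.subtype = H from ?_]
    ext d
    exact ⟨fun ⟨x, hx, e⟩ => e ▸ hx, fun hd => ⟨⟨d, hHD hd⟩, hd, rfl⟩⟩
  rw [e] at hmem
  obtain ⟨w, hw, rfl⟩ := hmem
  have hw1 : w ∈ σD.ker ⊓ ⁅(Y.L 0).comap σD, (Y.L 0).comap σD⁆ := by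
    refine ⟨?_, hw⟩
    rw [← hker] at hz
    exact hz
  rw [hsplit, Subgroup.mem_bot] at hw1
  rw [hw1]
  exact one_mem _

end Cfsg.Agent.ReeF4Mult
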