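import Cfsg.Agent.ReeF4Mult.Tables

/-!
# Exponents modulo `2 e² = 1` (owner: helper31)
-/

set_option autoImplicit false

namespace Cfsg.Agent.ReeF4Mult

variable {K : Type*} [Field K] [CharP K 2] {E : ℤ} (hE : ∀ u : Kˣ, u ^ (2 * E * E) = u)

/-- A unit whose square is one is one. -/
theorem eq_one_of_sq (w : Kˣ) (h : w ^ (2 : ℤ) = 1) : w = 1 := by
  have h' : (w : K) * w = 1 := by
    have := congrArg Units.val h
    rwa [zpow_two, Units.val_mul, Units.val_one] at this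
  have h2 : (2 : K) = 0 := CharTwo.two_eq_zero
  have h3 : ((w : K) + 1) * ((w : K) + 1) = 0 := by linear_combination h' + ((w : K) + 1) * h2
  exact Units.ext (CharTwo.add_eq_zero.1 (mul_self_eq_zero.1 h3))

theorem eq_one_of_pow_two (w : Kˣ) : ∀ n : ℕ, w ^ ((2 : ℤ) ^ n) = 1 → w = 1
  | 0, h => by simpa using h
  | n + 1, h => eq_one_of_pow_two w n (eq_one_of_sq _ (by rw [← zpow_mul, ← pow_succ]; exact h))

omit [CharP K 2] in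
include hE in
theorem zpow_reduce (u : Kˣ) (d₀ d₁ d₂ : ℤ) :
    (u ^ (d₀ + d₁ * E + d₂ * (E * E))) ^ (2 : ℤ) = u ^ (2 * d₀ + d₂ + 2 * d₁ * E) := by
  rw [← zpow_mul, show (d₀ + d₁ * E + d₂ * (E * E)) * 2 = (2 * d₀ + 2 * d₁ * E) + (2 * E * E) * d₂ by ring,
    zpow_add, zpow_mul u (2 * E * E), hE, ← zpow_add]
  congr 1
  ring

include hE in
theorem zpow_eq_of_sameExp (u : Kˣ) {x₀ x₁ y₀ y₁ : ℤ} {m₀ m₁ : ℕ} (h : sameExp x₀ x₁ m₀ m₁ y₀ y₁ = true) :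
    (u ^ (x₀ + x₁ * E)) ^ ((m₀ : ℤ) + m₁ * E) = u ^ (y₀ + y₁ * E) := by
  simp only [sameExp, Bool.and_eq_true, decide_eq_true_eq] at h
  refine mul_inv_eq_one.1 (eq_one_of_sq _ ?_)
  rw [← zpow_mul, ← zpow_neg, ← zpow_add,
    show (x₀ + x₁ * E) * ((m₀ : ℤ) + m₁ * E) + -(y₀ + y₁ * E) =
      (x₀ * m₀ - y₀) + (x₀ * m₁ + x₁ * m₀ - y₁) * E + (x₁ * m₁) * (E * E) by ring,
    zpow_reduce hE, h.1, h.2]
  simp

include hE in
theorem eq_one_of_norm (u : Kˣ) {d₀ d₁ d₂ : ℤ} (h : u ^ (d₀ + d₁ * E + d₂ * (E * E)) = 1) {n : ℕ}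
    (hN : (2 * (2 * d₀ + d₂) ^ 2 - (2 * d₁) ^ 2).natAbs = 2 ^ n) : u = 1 := by
  have h1 : u ^ (2 * d₀ + d₂ + 2 * d₁ * E) = 1 := by rw [← zpow_reduce hE, h, one_zpow]
  have h2 : u ^ (2 * (2 * d₀ + d₂) ^ 2 - (2 * d₁) ^ 2) = 1 := by
    have h3 : (u ^ (2 * d₀ + d₂ + 2 * d₁ * E)) ^ (2 * (2 * d₀ + d₂) - 2 * (2 * d₁) * E) = 1 := by
      rw [h1, one_zpow]
    rwa [← zpow_mul, show (2 * d₀ + d₂ + 2 * d₁ * E) * (2 * (2 * d₀ + d₂) - 2 * (2 * d₁) * E) =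
      2 * (2 * d₀ + d₂) ^ 2 + (2 * E * E) * (-(2 * d₁) ^ 2) by ring, zpow_add, zpow_mul u (2 * E * E), hE,
      ← zpow_add, ← sub_eq_add_neg] at h3
  refine eq_one_of_pow_two u n ?_
  rcases Int.natAbs_eq (2 * (2 * d₀ + d₂) ^ 2 - (2 * d₁) ^ 2) with e | e <;> rw [e, hN] at h2 <;> push_cast at h2
  · exact h2
  · rwa [zpow_neg, inv_eq_one] at h2

/-- The lists of allowed norms consist of powers of two. -/
theorem exists_pow_of_norms {N : ℕ} (h : [1, 2, 4, 8, 16, 32, 64, 128].contains N = true) : ∃ n, N = 2 ^ n := by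
  simp only [List.contains_eq_mem, List.mem_cons, List.not_mem_nil, or_false, decide_eq_true_eq] at h
  rcases h with rfl | rfl | rfl | rfl | rfl | rfl | rfl | rfl
  exacts [⟨0, rfl⟩, ⟨1, rfl⟩, ⟨2, rfl⟩, ⟨3, rfl⟩, ⟨4, rfl⟩, ⟨5, rfl⟩, ⟨6, rfl⟩, ⟨7, rfl⟩]

include hE in
theorem eq_one_of_unitExp (u : Kˣ) {x₀ x₁ : ℤ} (h : u ^ (x₀ + x₁ * E) = 1) (hu : unitExp x₀ x₁ = true) :
    u = 1 := by
  obtain ⟨n, hn⟩ := exists_pow_of_norms (N := (2 * (2 * x₀ + 0) ^ 2 - (2 * x₁) ^ 2).natAbs) (by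
    simp only [unitExp, List.contains_eq_mem, List.mem_cons, List.not_mem_nil, or_false, decide_eq_true_eq,
      add_zero] at hu ⊢
    omega)
  exact eq_one_of_norm hE u (d₀ := x₀) (d₁ := x₁) (d₂ := 0) (by simpa using h) hn

include hE in
theorem eq_one_of_indep (u : Kˣ) {w v : ℤ × ℤ × ℤ × ℤ}
    (h : u ^ ((w.1 + w.2.1 * E) * (v.2.2.1 + v.2.2.2 * E) - (v.1 + v.2.1 * E) * (w.2.2.1 + w.2.2.2 * E)) = 1)
    (hi : indep w v = true) : u = 1 := by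
  simp only [indep] at hi
  obtain ⟨n, hn⟩ := exists_pow_of_norms hi
  refine eq_one_of_norm hE u ?_ hn
  convert h using 2
  ring

end Cfsg.Agent.ReeF4Mult
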