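import Cfsg.Agent.ReeF4Mult.Split
import Cfsg.Agent.ReeF4Mult.Weights

/-!
# The twelve weighted layers of the unipotent group of ²F₄(q) (owner: helper31)
-/

set_option autoImplicit false

namespace Cfsg.Agent.ReeF4Mult

open Cfsg.Lie Cfsg.Agent.ChevGrp Cfsg.Agent.ChevTw Cfsg.Agent.TwInvolF4
open scoped commutatorElement

set_option linter.unusedSimpArgs false
set_option linter.unusedSectionVars false

variable {K : Type*} [Field K]

/-- The element of the parameter `p` with value `t`. -/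
noncomputable def Xp (e p : ℕ) (t : K) : GL chevF4.Idx K :=
  ((slotsOf p).map fun s => xGL chevF4 K s.1 (t ^ (s.2.1 + s.2.2 * e))).prod

/-- The character of the parameter `p` on the split torus. -/
noncomputable def chiP (e p : ℕ) : Kˣ × Kˣ →* Kˣ :=
  (zpowGroupHom ((wtOf p).1 + (wtOf p).2.1 * (e : ℤ))).comp (MonoidHom.fst Kˣ Kˣ) *
    (zpowGroupHom ((wtOf p).2.2.1 + (wtOf p).2.2.2 * (e : ℤ))).comp (MonoidHom.snd Kˣ Kˣ)

theorem chiP_apply (e p : ℕ) (c : Kˣ × Kˣ) :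
    chiP e p c = c.1 ^ ((wtOf p).1 + (wtOf p).2.1 * (e : ℤ)) * c.2 ^ ((wtOf p).2.2.1 + (wtOf p).2.2.2 * (e : ℤ)) :=
  rfl

/-- The split torus of ²F₄. -/
noncomputable def tauP (e : ℕ) : Kˣ × Kˣ →* GL chevF4.Idx K :=
  let hR := (rulesF4 K).root.choose_spec
  ((glSys (rulesF4 K)).tau (rulesF4 K) hR (glSys_HMul (rulesF4 K) hR)).comp
    (MonoidHom.mk' (fun c => mkF4 (c.1 ^ e) (c.2 ^ e) c.2 c.1) fun a b => by
      funext j
      simp only [mkF4, Pi.mul_apply]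
      rcases j with ⟨j, hj⟩
      have : j < 4 := hj
      interval_cases j <;> simp [mul_pow])

variable [CharP K 2]

theorem Xp_zero_right {e p : ℕ} (he : e ≠ 0) (hp : p < 12) : Xp e p (0 : K) = 1 := by
  refine List.prod_eq_one fun g hg => ?_
  obtain ⟨s, hs, rfl⟩ := List.mem_map.1 hg
  have hz : s.2.1 + s.2.2 * e ≠ 0 := by
    have : ∀ p < 12, ∀ s ∈ slotsOf p, 0 < s.2.1 ∨ 0 < s.2.2 := by decide +kernel
    rcases this p hp s hs with h | h
    · omega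
    · have := Nat.mul_pos h (Nat.pos_of_ne_zero he)
      omega
  rw [zero_pow hz]
  exact x_zero' (slot_lt p hp s hs)

theorem Xp_eq_Pw {e p : ℕ} (he : e ≠ 0) (hp : p < 12) (t : K) :
    Xp e p t = Pw e (blockOf p).1 (if (blockOf p).2 then t else 0) (if (blockOf p).2 then 0 else t) := by
  have hz : ∀ r ∈ rorder, xGL chevF4 K r 0 = 1 := fun r hr => x_zero' (rorder_lt r hr)
  simp only [rorder, List.mem_cons, List.not_mem_nil, or_false, forall_eq_or_imp, forall_eq] at hz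
  obtain ⟨z1, z2, z3, z4, z5, z6, z7, z8, z9, z10, z11, z12, z13, z14, z15, z16, z17, z18, z19, z20, z21, z22,
    z23, z24⟩ := hz
  interval_cases p <;>
    simp [Xp, slotsOf, blockOf, Pw, blocks, zero_pow he, pow_add, mul_comm 2 e, pow_mul, pow_two, mul_pow, mul_comm t,
      *]

theorem Uel_eq_Xp {e : ℕ} (he : e ≠ 0) (f : Par K) :
    Uel e f = ((List.finRange 12).map fun p => Xp e p.val (f p)).prod := by
  have hz : ∀ r ∈ rorder, xGL chevF4 K r 0 = 1 := fun r hr => x_zero' (rorder_lt r hr)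
  simp only [rorder, List.mem_cons, List.not_mem_nil, or_false, forall_eq_or_imp, forall_eq] at hz
  obtain ⟨z1, z2, z3, z4, z5, z6, z7, z8, z9, z10, z11, z12, z13, z14, z15, z16, z17, z18, z19, z20, z21, z22,
    z23, z24⟩ := hz
  have hm : ∀ r ∈ rorder, ∀ x y : K, xGL chevF4 K r x * xGL chevF4 K r y = xGL chevF4 K r (x + y) := fun r hr x y =>
    (x_add' (rorder_lt r hr) x y)
  have hr : (List.finRange 12).map (fun p => Xp e p.val (f p)) = [Xp e 0 (f 0), Xp e 1 (f 1), Xp e 2 (f 2),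
      Xp e 3 (f 3), Xp e 4 (f 4), Xp e 5 (f 5), Xp e 6 (f 6), Xp e 7 (f 7), Xp e 8 (f 8), Xp e 9 (f 9),
      Xp e 10 (f 10), Xp e 11 (f 11)] := rfl
  have hb : ∀ i ∈ [2, 4, 6, 8], ∀ t u : K, Pw e i t u = Pw e i t 0 * Pw e i 0 u := by
    intro i hi t u
    fin_cases hi <;>
      simp [Pw, blocks, zero_pow he, mul_assoc, z1, z2, z3, z4, z5, z6, z7, z8, z9, z10, z11, z12, z13, z14, z15,
        z16, z17, z18, z19, z20, z21, z22, z23, z24] <;>
      rw [← mul_assoc, hm _ (by decide)]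
  rw [hr]
  simp only [List.prod_cons, List.prod_nil, mul_one, Xp_eq_Pw he (show 0 < 12 by decide),
    Xp_eq_Pw he (show 1 < 12 by decide), Xp_eq_Pw he (show 2 < 12 by decide), Xp_eq_Pw he (show 3 < 12 by decide),
    Xp_eq_Pw he (show 4 < 12 by decide), Xp_eq_Pw he (show 5 < 12 by decide), Xp_eq_Pw he (show 6 < 12 by decide),
    Xp_eq_Pw he (show 7 < 12 by decide), Xp_eq_Pw he (show 8 < 12 by decide), Xp_eq_Pw he (show 9 < 12 by decide),
    Xp_eq_Pw he (show 10 < 12 by decide), Xp_eq_Pw he (show 11 < 12 by decide)]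
  simp only [blockOf, List.getD_cons_zero, List.getD_cons_succ, if_true, if_false, Bool.false_eq_true, Uel]
  rw [hb 2 (by simp) (f 1), hb 4 (by simp) (f 4), hb 6 (by simp) (f 7), hb 8 (by simp) (f 10)]
  simp only [mul_assoc]

/-- A symbolic parameter. -/
theorem wev_lsym {e p : ℕ} (he : e ≠ 0) (hp : p < 12) (ρ : List K) {t T : Pol} (hT : pev ρ T = pev ρ t ^ e) :
    wev ρ (lsym p t T) = Xp e p (pev ρ t) := by
  have h0 : pev ρ ([] : Pol) = pev ρ ([] : Pol) ^ e := by simp [pev_nil, zero_pow he]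
  rw [Xp_eq_Pw he hp, lsym]
  by_cases h : (blockOf p).2
  · rw [if_pos h, wev_blockSym _ hT h0, if_pos h, if_pos h, pev_nil]
  · rw [if_neg h, wev_blockSym _ h0 hT, if_neg h, if_neg h, pev_nil]

theorem lsym_lt {p : ℕ} (hp : p < 12) (t T : Pol) : ∀ q ∈ lsym p t T, q.1 < chevF4.nroots := by
  intro q hq
  have hb : ∀ p < 12, ∀ r ∈ blocks.getD ((blockOf p).1 - 1) [], r < chevF4.nroots := by decide +kernel
  simp only [lsym, blockSym] at hq
  split at hq <;> split at hq <;> exact hb p hp q.1 (List.of_mem_zip hq).1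

variable [Fintype K] {m : ℕ} (hK : Fintype.card K = 2 ^ (2 * m + 1))

include hK

theorem hE_int (u : Kˣ) : u ^ (2 * ((2 ^ m : ℕ) : ℤ) * ((2 ^ m : ℕ) : ℤ)) = u := by
  rw [show (2 : ℤ) * ((2 ^ m : ℕ) : ℤ) * ((2 ^ m : ℕ) : ℤ) = ((2 * 2 ^ m * 2 ^ m : ℕ) : ℤ) by push_cast; ring,
    zpow_natCast, units_pow_twice hK]

theorem Xp_mem {p : ℕ} (hp : p < 12) (t : K) :
    Xp (2 ^ m) p t ∈ (glSys (rulesF4 K)).Ubar ⊓ twistedF4 K (2 ^ m) := by
  rw [Xp_eq_Pw (by positivity) hp]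
  have : ∀ p < 12, (blockOf p).1 ∈ [1, 2, 3, 4, 5, 6, 7, 8] := by decide +kernel
  exact Pw_mem hK (this p hp) _ _

theorem tauP_mem (c : Kˣ × Kˣ) : tauP (2 ^ m) c ∈ twistedF4 K (2 ^ m) :=
  tau_mem_F4 hK (rulesF4 K).root.choose_spec ((mem_fixF4_iff (mkF4 (c.1 ^ 2 ^ m) (c.2 ^ 2 ^ m) c.2 c.1)).2 ⟨rfl, rfl, by
    show (c.2 ^ 2 ^ m) ^ (2 * 2 ^ m) = c.2
    rw [← pow_mul, mul_comm, units_pow_twice hK], by
    show (c.1 ^ 2 ^ m) ^ (2 * 2 ^ m) = c.1
    rw [← pow_mul, mul_comm, units_pow_twice hK]⟩)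

theorem tauP_conj (c : Kˣ × Kˣ) {p : ℕ} (hp : p < 12) (t : K) :
    tauP (2 ^ m) c * Xp (2 ^ m) p t * (tauP (2 ^ m) c)⁻¹ = Xp (2 ^ m) p ((chiP (2 ^ m) p c : K) * t) := by
  set e := 2 ^ m
  have hR := (rulesF4 K).root.choose_spec
  have key : ∀ s ∈ slotsOf p, tauP e c * xGL chevF4 K s.1 (t ^ (s.2.1 + s.2.2 * e)) * (tauP e c)⁻¹ =
      xGL chevF4 K s.1 (((chiP e p c : K) * t) ^ (s.2.1 + s.2.2 * e)) := by
    intro s hs
    obtain ⟨ha, hb⟩ := weight_table p hp s hs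
    refine (Cfsg.Agent.ChevTwOrd.tau_conj (rulesF4 K) hR (glSys_HMul (rulesF4 K) hR) _ s.1 (slot_lt p hp s hs) _).trans ?_
    refine congrArg (xGL chevF4 K s.1) ?_
    rw [mul_pow, ← Units.val_pow_eq_pow_val]
    refine congrArg (fun w : Kˣ => (w : K) * t ^ (s.2.1 + s.2.2 * e)) ?_
    show (∏ j : Fin 4, mkF4 (c.1 ^ e) (c.2 ^ e) c.2 c.1 j ^ chevF4.cartan j.val s.1 : Kˣ) = _
    rw [Fin.prod_univ_four, chiP_apply, mul_pow, ← zpow_natCast (_ ^ ((wtOf p).1 + _)),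
      ← zpow_natCast (_ ^ ((wtOf p).2.2.1 + _))]
    push_cast
    rw [zpow_eq_of_sameExp (hE_int hK) c.1 ha, zpow_eq_of_sameExp (hE_int hK) c.2 hb]
    simp only [mkF4, Fin.val_zero, Fin.val_one, Fin.val_two, show ((3 : Fin 4) : ℕ) = 3 from rfl,
      List.getD_cons_zero, List.getD_cons_succ]
    rw [← zpow_natCast c.1 e, ← zpow_natCast c.2 e, ← zpow_mul, ← zpow_mul, zpow_add, zpow_add,
      mul_comm (e : ℤ), mul_comm (e : ℤ)]
    simp only [mul_comm, mul_left_comm, mul_assoc]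
    rfl
  rw [Xp, Xp]
  generalize slotsOf p = L at key ⊢
  induction L with
  | nil => simp
  | cons s L ih =>
    simp only [List.map_cons, List.prod_cons]
    rw [← key s List.mem_cons_self, ← ih fun x hx => key x (List.mem_cons_of_mem _ hx)]
    group

theorem exists_live {w : SWord} {S : List ℕ} {ps : List Pol} (h : pick coordPos w = some ps)
    (hps : ∀ p < 12, p ∉ S → ps.getD p [] = []) (ρ : List K) (hw : wev ρ w ∈ twistedF4 K (2 ^ m)) :
    ∃ f : Par K, Live S f ∧ wev ρ w = Uel (2 ^ m) f := by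
  obtain ⟨f, hf, hsel⟩ := exists_of_pick hK h ρ hw
  have he : (2 : ℕ) ^ m ≠ 0 := by positivity
  refine ⟨f, fun j hj => ?_, hf⟩
  have h0 : (TwInvolF4.sel (2 ^ m) f coordPos).getD j 0 = 0 := by
    rw [hsel, ← pev_nil ρ, List.getD_map, hps j j.2 hj]
  fin_cases j <;> simp [TwInvolF4.sel, coordPos, vals, he] at h0 <;> simpa using h0

end Cfsg.Agent.ReeF4Mult
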